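import Mathlib
import Cfsg.Agent.Lib.Helper8.PG.Defs
import Cfsg.Agent.Lib.Helper40.PSpRP
import Cfsg.Agent.Lib.Helper14.OmegaInv

/-!
# PG package [SPN1] (S2474)

`q ≡ 1 (mod 4)`, `k ≤ n`: the symplectic matrix `diag(i A, ((i A)⁻¹)ᵀ)` with `i² = -1` and
`A ∈ GL_n(q)` of order `s` has image of order `2 s` in `PSp_{2n}(q)`.
-/

set_option autoImplicit false
set_option linter.unusedSectionVars false
set_option linter.style.haveILetI false

namespace Cfsg.Agent.Lib.Helper13.PG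

open Matrix Polynomial Cfsg.Agent.Lib.Helper40.DualPoly
  Cfsg.Agent.Lib.Helper40.PrimeOrderGL Cfsg.Agent.Lib.Helper40.GUPrimeOrder
  Cfsg.Agent.Lib.Helper40.PSpRP Cfsg.Agent.Lib.Helper8.PG

universe u

theorem fromBlocks_diag_pow13 {l : Type*} [Fintype l] [DecidableEq l] {R : Type*} [CommRing R]
    (P Q : Matrix l l R) (j : ℕ) :
    (Matrix.fromBlocks P 0 0 Q) ^ j = Matrix.fromBlocks (P ^ j) 0 0 (Q ^ j) := by
  induction j with
  | zero => rw [pow_zero, pow_zero, pow_zero, Matrix.fromBlocks_one]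
  | succ j ih =>
    rw [pow_succ, ih, Matrix.fromBlocks_multiply]
    simp [pow_succ]

theorem eq_one_of_pow_coprime13 {M : Type*} [Monoid M] (x : M) (a b : ℕ) (ha : x ^ a = 1)
    (hb : x ^ b = 1) (hab : Nat.Coprime a b) : x = 1 := by
  have h1 := orderOf_dvd_of_pow_eq_one ha
  have h2 := orderOf_dvd_of_pow_eq_one hb
  have h3 : orderOf x ∣ Nat.gcd a b := Nat.dvd_gcd h1 h2
  rw [Nat.Coprime.gcd_eq_one hab, Nat.dvd_one] at h3
  exact orderOf_eq_one_iff.1 h3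

theorem pkgSpN1 : PkgSpN1.{u} := by
  intro F _ _ p _ _ n s k hs hs2 hsp hk hkn hq4
  classical
  have hpp : p.Prime := Fact.out
  have hodd : Odd (Fintype.card F) := by
    rw [Nat.odd_iff]
    omega
  have h2 : (2 : F) ≠ 0 := Cfsg.Agent.Lib.Helper14.two_ne_zero_of_card_odd hodd
  have hsodd : Odd s := hs.odd_of_ne_two hs2
  obtain ⟨i, hi⟩ : ∃ i : F, i * i = -1 := by
    have h := (FiniteField.isSquare_neg_one_iff (F := F)).2 (by omega)
    obtain ⟨i, hi⟩ := h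
    exact ⟨i, hi.symm⟩
  obtain ⟨S, dg, hS, hSne, hsF, hk0, hdg, hdd, hfix⟩ := exists_sp_data p s k hs hs2 hsp hk
  obtain ⟨π₀, hπ₀⟩ := hSne
  obtain ⟨a, ha⟩ : ∃ a : S → ℕ, a = fun π => if π = ⟨π₀, hπ₀⟩ then 1 else 0 := ⟨_, rfl⟩
  have hsum : ∑ π, a π = 1 := by
    rw [ha]
    simp
  obtain ⟨gA, hgA, hχA⟩ := exists_GL_chi (n := n) p hS hs.pos a (by rw [hsum]; omega)
  obtain ⟨A, hA⟩ : ∃ A : Matrix (Fin n) (Fin n) F, A = (gA : Matrix (Fin n) (Fin n) F) :=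
    ⟨_, rfl⟩
  have hAs : A ^ s = 1 := by
    rw [hA, ← Units.val_pow_eq_pow_val, hgA]
    rfl
  have hA1 : A ≠ 1 := by
    intro h
    rw [← hA, h, Matrix.charpoly_one] at hχA
    have h3 : chi S (0 : S → ℕ) n = chi S a (n - k * ∑ π, a π) := by
      rw [← hχA]
      simp [chi]
    have h4 := chi_inj hS _ _ _ _ h3
    have h5 := congrFun h4 ⟨π₀, hπ₀⟩
    rw [ha] at h5
    simp at h5
  obtain ⟨P, hP⟩ : ∃ P : Matrix (Fin n) (Fin n) F, P = i • A := ⟨_, rfl⟩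
  obtain ⟨P', hP'⟩ : ∃ P' : Matrix (Fin n) (Fin n) F, P' = (-i) • A ^ (s - 1) := ⟨_, rfl⟩
  have hPP' : P * P' = 1 := by
    have h1 : i * -i = 1 := by rw [mul_neg, hi, neg_neg]
    rw [hP, hP', Matrix.smul_mul, Matrix.mul_smul, smul_smul, ← pow_succ',
      Nat.sub_add_cancel hs.pos, hAs, h1, one_smul]
  have hP'P : P' * P = 1 := mul_eq_one_comm.mp hPP'
  have hP2s : P ^ (2 * s) = -1 := by
    have hi2s : i ^ (2 * s) = -1 := by rw [pow_mul, sq, hi, Odd.neg_one_pow hsodd]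
    have hA2s : A ^ (2 * s) = 1 := by rw [mul_comm, pow_mul, hAs, one_pow]
    rw [hP, _root_.smul_pow, hi2s, hA2s, neg_smul, one_smul]
  have hP'2s : P' ^ (2 * s) = -1 := by
    have hc : Commute P' P := by
      show P' * P = P * P'
      rw [hP'P, hPP']
    have h1 : (P' * P) ^ (2 * s) = P' ^ (2 * s) * P ^ (2 * s) := hc.mul_pow _
    rw [hP'P, one_pow, hP2s, mul_neg, mul_one] at h1
    exact neg_eq_iff_eq_neg.mp h1.symm
  have hP2 : P ^ 2 = - A ^ 2 := by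
    rw [hP, _root_.smul_pow, sq i, hi, neg_smul, one_smul]
  obtain ⟨S₀, hS₀⟩ : ∃ S₀ : Matrix (Fin n ⊕ Fin n) (Fin n ⊕ Fin n) F,
      S₀ = Matrix.fromBlocks P 0 0 P'ᵀ := ⟨_, rfl⟩
  have hmem : S₀ ∈ Matrix.symplecticGroup (Fin n) F := by
    rw [SymplecticGroup.mem_iff, hS₀, Matrix.J, Matrix.fromBlocks_transpose,
      Matrix.fromBlocks_multiply, Matrix.fromBlocks_multiply]
    simp only [Matrix.mul_zero, Matrix.zero_mul, add_zero, zero_add, Matrix.mul_neg,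
      Matrix.mul_one, Matrix.neg_mul, Matrix.transpose_zero, Matrix.transpose_transpose, hPP',
      ← Matrix.transpose_mul, Matrix.transpose_one, neg_zero]
  have hpow : ∀ j, S₀ ^ j = Matrix.fromBlocks (P ^ j) 0 0 ((P' ^ j)ᵀ) := by
    intro j
    rw [hS₀, fromBlocks_diag_pow13, Matrix.transpose_pow]
  have hn0 : 0 < n := by omega
  have hne : (-1 : Matrix (Fin n) (Fin n) F) ≠ 1 := by
    intro h
    have h3 := congrFun (congrFun h ⟨0, hn0⟩) ⟨0, hn0⟩
    rw [Matrix.neg_apply, Matrix.one_apply_eq] at h3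
    apply h2
    linear_combination (-1 : F) * h3
  refine ⟨⟨S₀, hmem⟩, Or.inr ?_, ?_, ?_⟩
  · show S₀ ^ (2 * s) = -1
    rw [hpow, hP2s, hP'2s, Matrix.transpose_neg, Matrix.transpose_one, ← Matrix.fromBlocks_one,
      Matrix.fromBlocks_neg, neg_zero]
  · show ¬ (S₀ ^ 2 = 1 ∨ S₀ ^ 2 = -1)
    rintro (h | h)
    · rw [hpow, ← Matrix.fromBlocks_one, Matrix.fromBlocks_inj] at h
      have h1 := h.1
      rw [hP2] at h1
      have h3 : A ^ 2 = -1 := neg_eq_iff_eq_neg.mp h1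
      have h4 : A ^ 4 = 1 := by
        have h5 : A ^ 4 = (A ^ 2) ^ 2 := by rw [← pow_mul]
        rw [h5, h3, neg_one_sq]
      have hcop : Nat.Coprime 4 s :=
        Nat.Coprime.pow_left 2 ((Nat.coprime_primes Nat.prime_two hs).2 (Ne.symm hs2))
      exact hA1 (eq_one_of_pow_coprime13 A 4 s h4 hAs hcop)
    · rw [hpow, ← Matrix.fromBlocks_one, Matrix.fromBlocks_neg, Matrix.fromBlocks_inj] at h
      have h1 := h.1
      rw [hP2] at h1
      have h3 : A ^ 2 = 1 := neg_inj.mp h1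
      have hcop : Nat.Coprime 2 s := (Nat.coprime_primes Nat.prime_two hs).2 (Ne.symm hs2)
      exact hA1 (eq_one_of_pow_coprime13 A 2 s h3 hAs hcop)
  · show ¬ (S₀ ^ s = 1 ∨ S₀ ^ s = -1)
    intro h
    have hsq : (S₀ ^ s) ^ 2 = 1 := by
      rcases h with h | h
      · rw [h, one_pow]
      · rw [h, neg_one_sq]
    rw [← pow_mul, mul_comm, hpow, hP2s, ← Matrix.fromBlocks_one, Matrix.fromBlocks_inj] at hsq
    exact hne hsq.1

end Cfsg.Agent.Lib.Helper13.PG
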